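import Cfsg.Agent.BpLin.SemiRing
import Mathlib.LinearAlgebra.Semisimple
import Mathlib.FieldTheory.Separable

/-!
# The centralizer ring of a semisimple endomorphism is semisimple

* `semisimple_centralizer` : for `φ : End F V` semisimple, the centralizer of `φ` in `End F V` is a semisimple ring;
* `semisimple_centralizer_matrix` : for a matrix `g` with `g ^ m = a`, `a ≠ 0`, `m ≠ 0` in `F`;
* `good_of_injective` : a group isomorphic to a normal subgroup of a good group.
-/

set_option autoImplicit false
set_option linter.unusedSectionVars false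

namespace Cfsg.Agent.BpLin

open Subgroup Cfsg Cfsg.Agent.Lib Cfsg.Agent.BpTab Polynomial Module

section Ring

variable {F V : Type*} [Field F] [AddCommGroup V] [Module F V]

theorem comm_aeval {φ a : Module.End F V} (h : φ * a = a * φ) (r : F[X]) : aeval φ r * a = a * aeval φ r := by
  have h1 : Commute a φ := h.symm
  have h2 : aeval φ r ∈ Algebra.adjoin F {φ} := aeval_mem_adjoin_singleton F φ
  have h3 : Commute a (aeval φ r) := by
    refine Algebra.adjoin_induction (p := fun x _ => Commute a x) ?_ ?_ ?_ ?_ h2
    · intro x hx
      rw [Set.mem_singleton_iff] at hx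
      rw [hx]; exact h1
    · intro r
      exact (Algebra.commutes r a).symm
    · intro x y _ _ hx hy
      exact hx.add_right hy
    · intro x y _ _ hx hy
      exact hx.mul_right hy
  exact h3.eq.symm

/-- The centralizer ring of `φ` is the endomorphism ring of the `F[X]`-module `V`. -/
noncomputable def centEquiv (φ : Module.End F V) :
    ↥(Subring.centralizer ({φ} : Set (Module.End F V))) ≃+* Module.End F[X] (AEval' φ) where
  toFun a :=
    { toFun := fun v => AEval'.of φ ((a : Module.End F V) ((AEval'.of φ).symm v))
      map_add' := fun v w => by rw [map_add, map_add, map_add]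
      map_smul' := fun r v => by
        have h1 : φ * (a : Module.End F V) = (a : Module.End F V) * φ := by
          have := Subring.mem_centralizer_iff.mp a.2 φ (Set.mem_singleton φ)
          exact this
        have h2 := comm_aeval h1 r
        rw [RingHom.id_apply, ← AEval.of_aeval_smul]
        congr 1
        have h3 : (AEval'.of φ).symm (r • v) = aeval φ r ((AEval'.of φ).symm v) := AEval.of_symm_smul _ _ _
        rw [h3]
        exact (LinearMap.congr_fun h2 _).symm }
  invFun b := ⟨
    { toFun := fun v => (AEval'.of φ).symm (b (AEval'.of φ v))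
      map_add' := fun v w => by rw [map_add, map_add, map_add]
      map_smul' := fun r v => by
        rw [map_smul, RingHom.id_apply]
        have h1 : b (r • AEval'.of φ v) = r • b (AEval'.of φ v) := by
          rw [← AEval.C_smul, ← AEval.C_smul, map_smul]
        rw [h1, map_smul] }, by
    rw [Subring.mem_centralizer_iff]
    intro g hg
    rw [Set.mem_singleton_iff] at hg
    rw [hg]
    ext v
    have h1 : b (AEval'.of φ (φ v)) = (X : F[X]) • b (AEval'.of φ v) := by
      rw [← AEval'.X_smul_of, map_smul]
    change φ ((AEval'.of φ).symm (b (AEval'.of φ v))) = (AEval'.of φ).symm (b (AEval'.of φ (φ v)))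
    rw [h1]
    exact (AEval'.of_symm_X_smul _ _).symm⟩
  left_inv a := by
    apply Subtype.ext
    ext v
    change (AEval'.of φ).symm (AEval'.of φ ((a : Module.End F V) ((AEval'.of φ).symm (AEval'.of φ v)))) = _
    rw [LinearEquiv.symm_apply_apply, LinearEquiv.symm_apply_apply]
  right_inv b := by
    ext v
    change AEval'.of φ ((AEval'.of φ).symm (b (AEval'.of φ ((AEval'.of φ).symm v)))) = _
    rw [LinearEquiv.apply_symm_apply, LinearEquiv.apply_symm_apply]
  map_mul' a b := by
    ext v
    change AEval'.of φ ((a : Module.End F V) ((b : Module.End F V) ((AEval'.of φ).symm v))) =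
      AEval'.of φ ((a : Module.End F V) ((AEval'.of φ).symm (AEval'.of φ ((b : Module.End F V)
        ((AEval'.of φ).symm v)))))
    rw [LinearEquiv.symm_apply_apply]
  map_add' a b := by
    ext v
    change AEval'.of φ ((a : Module.End F V) ((AEval'.of φ).symm v) + (b : Module.End F V) ((AEval'.of φ).symm v)) = _
    rw [map_add]
    rfl

theorem semisimple_centralizer [FiniteDimensional F V] {φ : Module.End F V} (h : φ.IsSemisimple) :
    IsSemisimpleRing ↥(Subring.centralizer ({φ} : Set (Module.End F V))) := by
  have h1 : IsSemisimpleModule F[X] (AEval' φ) := h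
  have h2 : IsSemisimpleRing (Module.End F[X] (AEval' φ)) := IsSemisimpleRing.moduleEnd _ _
  exact (centEquiv φ).symm.isSemisimpleRing

theorem semisimple_of_pow [FiniteDimensional F V] {φ : Module.End F V} {m : ℕ} (hm : (m : F) ≠ 0) {a : F}
    (ha : a ≠ 0) (h : φ ^ m = a • 1) : φ.IsSemisimple := by
  refine Module.End.isSemisimple_of_squarefree_aeval_eq_zero (p := X ^ m - C a) ?_ ?_
  · exact (separable_X_pow_sub_C a hm ha).squarefree
  · rw [map_sub, map_pow, aeval_X, aeval_C, h, Algebra.algebraMap_eq_smul_one, sub_self]

end Ring

section Mat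

variable {F : Type*} [Field F] {n : ℕ}

theorem map_centralizer {A B : Type*} [Ring A] [Ring B] (e : A ≃+* B) (g : A) :
    (Subring.centralizer ({g} : Set A)).map (e : A →+* B) = Subring.centralizer ({e g} : Set B) := by
  ext b
  rw [Subring.mem_map, Subring.mem_centralizer_iff]
  constructor
  · rintro ⟨a, ha, rfl⟩ x hx
    rw [Set.mem_singleton_iff] at hx
    have h1 := Subring.mem_centralizer_iff.mp ha g (Set.mem_singleton g)
    rw [hx]
    change e g * e a = e a * e g
    rw [← map_mul, h1, map_mul]
  · intro h
    refine ⟨e.symm b, ?_, e.apply_symm_apply b⟩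
    rw [Subring.mem_centralizer_iff]
    intro x hx
    rw [Set.mem_singleton_iff] at hx
    have h1 := h (e g) (Set.mem_singleton _)
    apply e.injective
    rw [hx, map_mul, map_mul, e.apply_symm_apply]
    exact h1

/-- the centralizer rings of `g` and of its image under an isomorphism -/
noncomputable def centMap {A B : Type*} [Ring A] [Ring B] (e : A ≃+* B) (g : A) :
    ↥(Subring.centralizer ({g} : Set A)) ≃+* ↥(Subring.centralizer ({e g} : Set B)) :=
  (e.subringMap (s := Subring.centralizer ({g} : Set A))).trans (RingEquiv.subringCongr (map_centralizer e g))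

theorem semisimple_centralizer_matrix {g : Matrix (Fin n) (Fin n) F} {m : ℕ} (hm : (m : F) ≠ 0) {a : F}
    (ha : a ≠ 0) (h : g ^ m = a • 1) :
    IsSemisimpleRing ↥(Subring.centralizer ({g} : Set (Matrix (Fin n) (Fin n) F))) := by
  let e : Matrix (Fin n) (Fin n) F ≃ₐ[F] Module.End F (Fin n → F) := Matrix.toLinAlgEquiv'
  have h1 : (e g) ^ m = a • 1 := by
    rw [← map_pow, h, map_smul, map_one]
  have h2 := semisimple_centralizer (semisimple_of_pow hm ha h1)
  exact (centMap e.toRingEquiv g).symm.isSemisimpleRing

end Mat

section Normal

variable {p : ℕ} [hp : Fact p.Prime]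

/-- A group isomorphic to a normal subgroup of a good group is good. -/
theorem good_of_injective {H G : Type*} [Group H] [Finite H] [Group G] [Finite G] (f : H →* G)
    (hf : Function.Injective f) (hn : f.range.Normal) (h : Good p G) : Good p H :=
  (h.subnormal hn.isSubnormal).congr (MonoidHom.ofInjective hf).symm

end Normal

end Cfsg.Agent.BpLin
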