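import Cfsg.Agent.BpLin.Cent
import Cfsg.Agent.BpLin.Descent
import Cfsg.Agent.Schreier.ClassPSL

/-!
# The row `PSL_n(F)`, characteristic different from `p`

`bpS_psl` : for `p` an odd prime, `p ≠ 0` in `F`, the fixed points of every automorphism of order `p` of `PSL_n(F)` are
good.
-/

set_option autoImplicit false
set_option linter.unusedSectionVars false

namespace Cfsg.Agent.BpLin

open Subgroup Cfsg Cfsg.Agent.Lib Cfsg.Agent.BpTab Matrix
open Cfsg.Agent.ClassicalGeometry.AutPSL.Root Cfsg.Agent.ClassicalGeometry.AutPSL.Auto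
  Cfsg.Agent.ClassicalGeometry.AutPSL.Main Cfsg.Agent.Schreier.ClassPSL

section Fix

variable {X : Type*} [Group X] {p : ℕ} [hp : Fact p.Prime]

theorem mem_fixed {α : MulAut X} {g : X} : g ∈ fixedSubgroup α ↔ α g = g := Iff.rfl

/-- conjugate automorphisms have isomorphic fixed points -/
theorem good_fixed_conj [Finite X] {α β γ : MulAut X} (h : α = β * γ * β⁻¹) (hg : Good p ↥(fixedSubgroup γ)) :
    Good p ↥(fixedSubgroup α) := by
  have h1 : (fixedSubgroup γ).map (β : X →* X) = fixedSubgroup α := by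
    ext g
    constructor
    · rintro ⟨k, hk, rfl⟩
      have hk' : γ k = k := hk
      change α (β k) = β k
      rw [h, MulAut.mul_apply, MulAut.mul_apply, MulAut.inv_apply_self, hk']
    · intro hgα
      have hg' : α g = g := hgα
      refine ⟨β⁻¹ g, ?_, MulAut.apply_inv_self _ β g⟩
      change γ (β⁻¹ g) = β⁻¹ g
      rw [h, MulAut.mul_apply, MulAut.mul_apply] at hg'
      conv_rhs => rw [← hg']
      rw [MulAut.inv_apply_self]
  exact hg.congr (((fixedSubgroup γ).equivMapOfInjective (β : X →* X) β.injective).trans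
    (MulEquiv.subgroupCongr h1))

end Fix

section Alg

variable {F : Type*} [Field F] {n : ℕ}

/-- entrywise field automorphism of `GL` -/
abbrev mg (σ : F ≃+* F) : GL (Fin n) F →* GL (Fin n) F := Matrix.GeneralLinearGroup.map (σ : F →+* F)

theorem coe_mg (σ : F ≃+* F) (A : GL (Fin n) F) :
    ((mg σ A : GL (Fin n) F) : Matrix (Fin n) (Fin n) F) = (A : Matrix (Fin n) (Fin n) F).map (σ : F →+* F) := rfl

theorem mg_mg (σ τ : F ≃+* F) (A : GL (Fin n) F) : mg σ (mg τ A) = mg (σ * τ) A := by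
  apply Units.ext; ext i j; rfl

theorem mg_one' (A : GL (Fin n) F) : mg (1 : F ≃+* F) A = A := by
  apply Units.ext; ext i j; rfl

/-- the iterated product `A σ(A) σ²(A) ⋯` -/
def NA (A : GL (Fin n) F) (σ : F ≃+* F) : ℕ → GL (Fin n) F
  | 0 => 1
  | k + 1 => A * mg σ (NA A σ k)

theorem NA_succ (A : GL (Fin n) F) (σ : F ≃+* F) (k : ℕ) : NA A σ (k + 1) = A * mg σ (NA A σ k) := rfl

theorem NA_succ' (A : GL (Fin n) F) (σ : F ≃+* F) (k : ℕ) : NA A σ (k + 1) = NA A σ k * mg (σ ^ k) A := by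
  induction k with
  | zero => rw [NA_succ, NA, map_one, pow_zero, mg_one', one_mul, mul_one]
  | succ k ih => rw [NA_succ, ih, map_mul, mg_mg, ← pow_succ', ← mul_assoc, ← NA_succ, ih]

theorem NA_one (A : GL (Fin n) F) (k : ℕ) : NA A 1 k = A ^ k := by
  induction k with
  | zero => rfl
  | succ k ih => rw [NA_succ, ih, mg_one', pow_succ']

theorem pow_type (A : GL (Fin n) F) (σ : F ≃+* F) (k : ℕ) :
    (cj A * fld σ : MulAut (Matrix.SpecialLinearGroup (Fin n) F)) ^ k = cj (NA A σ k) * fld (σ ^ k) := by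
  induction k with
  | zero => rw [pow_zero, pow_zero, NA, map_one, map_one, one_mul]
  | succ k ih =>
    rw [pow_succ', ih, mul_assoc, ← mul_assoc (fld σ), fld_mul_cj, NA_succ, map_mul cj, pow_succ', map_mul fld]
    simp only [mul_assoc]

/-- the semilinear map of `A`, `σ` -/
def sl (A : GL (Fin n) F) (σ : F ≃+* F) : (Fin n → F) →+ (Fin n → F) where
  toFun v := (A : Matrix (Fin n) (Fin n) F) *ᵥ (fun i => σ (v i))
  map_zero' := by
    have : (fun i => σ ((0 : Fin n → F) i)) = 0 := by funext i; exact map_zero σ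
    rw [this, mulVec_zero]
  map_add' v w := by
    have : (fun i => σ ((v + w) i)) = (fun i => σ (v i)) + fun i => σ (w i) := by funext i; exact map_add σ _ _
    rw [this, mulVec_add]

theorem sl_smul (A : GL (Fin n) F) (σ : F ≃+* F) (a : F) (v : Fin n → F) : sl A σ (a • v) = σ a • sl A σ v := by
  change (A : Matrix (Fin n) (Fin n) F) *ᵥ (fun i => σ ((a • v) i)) = _
  have : (fun i => σ ((a • v) i)) = σ a • fun i => σ (v i) := by funext i; exact map_mul σ _ _
  rw [this, mulVec_smul]; rfl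

theorem sl_iter (A : GL (Fin n) F) (σ : F ≃+* F) (k : ℕ) (v : Fin n → F) :
    (sl A σ)^[k] v = (NA A σ k : Matrix (Fin n) (Fin n) F) *ᵥ (fun i => (σ ^ k) (v i)) := by
  induction k with
  | zero =>
    rw [NA, Units.val_one, one_mulVec]; rfl
  | succ k ih =>
    rw [Function.iterate_succ_apply', ih]
    change (A : Matrix (Fin n) (Fin n) F) *ᵥ (fun i => σ (((NA A σ k : Matrix (Fin n) (Fin n) F) *ᵥ
      (fun i => (σ ^ k) (v i))) i)) = _
    have h1 : (fun i => σ (((NA A σ k : Matrix (Fin n) (Fin n) F) *ᵥ (fun i => (σ ^ k) (v i))) i)) =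
        (NA A σ k : Matrix (Fin n) (Fin n) F).map (σ : F →+* F) *ᵥ (fun i => (σ ^ (k + 1)) (v i)) := by
      funext i
      rw [pow_succ']
      exact RingHom.map_mulVec (σ : F →+* F) _ _ i
    rw [h1, mulVec_mulVec, NA_succ, Units.val_mul, coe_mg]

/-- **Hilbert 90 for `GL_n`.** -/
theorem hilbert90 {σ : F ≃+* F} {p : ℕ} (hp : p.Prime) (hσ : σ ^ p = 1) (h1 : σ ≠ 1) {A : GL (Fin n) F}
    (hA : NA A σ p = 1) : ∃ B : GL (Fin n) F, A * mg σ B = B := by
  have h2 := span_fixed hp hσ h1 (φ := sl A σ) (sl_smul A σ) (fun v => by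
    rw [sl_iter, hA, hσ, Units.val_one, one_mulVec]; rfl)
  obtain ⟨b, hb, hbs, hli⟩ := exists_linearIndependent F {v | sl A σ v = v}
  have hb2 : ⊤ ≤ Submodule.span F (Set.range (Subtype.val : b → (Fin n → F))) := by
    rw [Subtype.range_coe, hbs, h2]
  let bas : Module.Basis b F (Fin n → F) := Module.Basis.mk hli hb2
  have hfin : Finite b := Module.Finite.finite_basis bas
  have := Fintype.ofFinite b
  have hcard : Fintype.card b = Fintype.card (Fin n) := by
    rw [← Module.finrank_eq_card_basis bas, Module.finrank_fin_fun, Fintype.card_fin]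
  let e : b ≃ Fin n := Fintype.equivOfCardEq hcard
  let v : Fin n → Fin n → F := fun j => (e.symm j : Fin n → F)
  have hv : ∀ j, sl A σ (v j) = v j := fun j => hb (e.symm j).2
  have hvli : LinearIndependent F v := hli.comp e.symm e.symm.injective
  let B₀ : Matrix (Fin n) (Fin n) F := Matrix.of fun i j => v j i
  have hu : IsUnit B₀ := by
    rw [← Matrix.linearIndependent_cols_iff_isUnit]
    exact hvli
  obtain ⟨B, hB⟩ := hu
  refine ⟨B, ?_⟩
  apply Units.ext
  rw [Units.val_mul, coe_mg, hB]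
  ext i j
  exact congrFun (hv j) i

theorem NA_smul (A : GL (Fin n) F) {σ : F ≃+* F} {t : F} (A' : GL (Fin n) F)
    (h : (A' : Matrix (Fin n) (Fin n) F) = t • (A : Matrix (Fin n) (Fin n) F)) (k : ℕ) :
    (NA A' σ k : Matrix (Fin n) (Fin n) F) = nrm σ k t • (NA A σ k : Matrix (Fin n) (Fin n) F) := by
  induction k with
  | zero => rw [NA, NA, nrm, Finset.prod_range_zero, one_smul]
  | succ k ih =>
    have h1 : nrm σ (k + 1) t = t * σ (nrm σ k t) := by
      rw [nrm, nrm, map_prod, Finset.prod_range_succ', mul_comm]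
      congr 1
      refine Finset.prod_congr rfl fun x _ => ?_
      rw [pow_succ']
      rfl
    rw [NA_succ, NA_succ, Units.val_mul, Units.val_mul, coe_mg, coe_mg, ih, h, h1]
    have h2 : (nrm σ k t • (NA A σ k : Matrix (Fin n) (Fin n) F)).map (σ : F →+* F) =
        σ (nrm σ k t) • (NA A σ k : Matrix (Fin n) (Fin n) F).map (σ : F →+* F) := by
      ext i j
      exact map_mul σ _ _
    rw [h2, Matrix.smul_mul, Matrix.mul_smul, smul_smul]

/-- a scalar multiple induces the same automorphism -/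
theorem cj_smul {A A' : GL (Fin n) F} {t : F} (ht : t ≠ 0)
    (h : (A' : Matrix (Fin n) (Fin n) F) = t • (A : Matrix (Fin n) (Fin n) F)) : cj A' = cj A := by
  have h1 : A' = Matrix.GeneralLinearGroup.scalar (Fin n) (Units.mk0 t ht) * A := by
    apply Units.ext
    rw [Units.val_mul, h]
    change t • (A : Matrix (Fin n) (Fin n) F) = Matrix.scalar (Fin n) t * (A : Matrix (Fin n) (Fin n) F)
    rw [Matrix.scalar_apply, ← Matrix.smul_one_eq_diagonal, Matrix.smul_mul, one_mul]
  rw [h1, map_mul, cj_eq_one_of_scalar (r := t) rfl, one_mul]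

/-- the scalar `N_σ(A)` is fixed by `σ` -/
theorem sigma_fixed [NeZero n] {A : GL (Fin n) F} {σ : F ≃+* F} {p : ℕ} (hσ : σ ^ p = 1) {c : F}
    (hc : (NA A σ p : Matrix (Fin n) (Fin n) F) = c • 1) : σ c = c := by
  have h1 : A * mg σ (NA A σ p) = NA A σ p * A := by
    rw [← NA_succ, NA_succ', hσ, mg_one']
  have h2 := congrArg (fun B : GL (Fin n) F => (B : Matrix (Fin n) (Fin n) F)) h1
  simp only [Units.val_mul, coe_mg, hc] at h2
  have h3 : (c • (1 : Matrix (Fin n) (Fin n) F)).map (σ : F →+* F) = σ c • 1 := by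
    ext i j
    by_cases hij : i = j
    · subst hij; simp
    · simp [hij]
  change (A : Matrix (Fin n) (Fin n) F) * (c • (1 : Matrix (Fin n) (Fin n) F)).map (σ : F →+* F) = _ at h2
  rw [h3, Matrix.mul_smul, mul_one, Matrix.smul_mul, one_mul] at h2
  have h4 : (σ c - c) • (A : Matrix (Fin n) (Fin n) F) = 0 := by rw [sub_smul, h2, sub_self]
  rcases smul_eq_zero.mp h4 with h5 | h5
  · exact sub_eq_zero.mp h5
  · exfalso
    have h6 : (1 : Matrix (Fin n) (Fin n) F) = 0 := by
      rw [← A.mul_inv, h5, zero_mul]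
    have h7 := congrFun (congrFun h6 0) 0
    rw [Matrix.one_apply_eq] at h7
    exact one_ne_zero h7

/-- Automorphisms `cj A * fld σ` with scalar norm are conjugate to `fld σ`. -/
theorem exists_std [NeZero n] [Finite F] {p : ℕ} (hp : p.Prime) {A : GL (Fin n) F} {σ : F ≃+* F} (h1 : σ ≠ 1)
    (hσ : σ ^ p = 1) {c : F} (hc : (NA A σ p : Matrix (Fin n) (Fin n) F) = c • 1) :
    ∃ B : GL (Fin n) F, cj A * fld σ = cj B * fld σ * (cj B)⁻¹ := by
  have hc0 : c ≠ 0 := by
    rintro rfl
    rw [zero_smul] at hc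
    have h6 : (1 : Matrix (Fin n) (Fin n) F) = 0 := by
      rw [← (NA A σ p).mul_inv, hc, zero_mul]
    have h7 := congrFun (congrFun h6 0) 0
    rw [Matrix.one_apply_eq] at h7
    exact one_ne_zero h7
  have hcσ := sigma_fixed hσ hc
  obtain ⟨t, ht0, ht⟩ := exists_norm hp hσ h1 (inv_ne_zero hc0) (by rw [map_inv₀, hcσ])
  let A' : GL (Fin n) F := Matrix.GeneralLinearGroup.scalar (Fin n) (Units.mk0 t ht0) * A
  have hA' : (A' : Matrix (Fin n) (Fin n) F) = t • (A : Matrix (Fin n) (Fin n) F) := by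
    rw [Units.val_mul]
    change Matrix.scalar (Fin n) t * (A : Matrix (Fin n) (Fin n) F) = _
    rw [Matrix.scalar_apply, ← Matrix.smul_one_eq_diagonal, Matrix.smul_mul, one_mul]
  have hN : NA A' σ p = 1 := by
    apply Units.ext
    rw [NA_smul A A' hA', hc, ht, smul_smul, inv_mul_cancel₀ hc0, one_smul, Units.val_one]
  obtain ⟨B, hB⟩ := hilbert90 hp hσ h1 hN
  refine ⟨B, ?_⟩
  have h2 : A' = B * (mg σ B)⁻¹ := eq_mul_inv_of_mul_eq hB
  rw [← cj_smul ht0 hA', h2, map_mul cj, map_inv cj, mul_assoc, mul_assoc]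
  congr 1
  rw [eq_mul_inv_iff_mul_eq, mul_assoc, fld_mul_cj, inv_mul_cancel_left]

end Alg

section Main

variable {F : Type*} [Field F] [Finite F] {n : ℕ} {p : ℕ} [hp : Fact p.Prime]

/-- the fixed field -/
abbrev fixF (σ : F ≃+* F) : Subfield F := RingHom.eqLocusField (σ : F →+* F) (RingHom.id F)

theorem mem_fixF {σ : F ≃+* F} {a : F} : a ∈ fixF σ ↔ σ a = a := Iff.rfl

/-- The fixed points of a field automorphism. -/
theorem good_fixed_fld (σ : F ≃+* F) :
    Good p ↥(fixedSubgroup (fld σ : MulAut (Matrix.SpecialLinearGroup (Fin n) F))) := by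
  let f : Matrix.SpecialLinearGroup (Fin n) (fixF σ) →* Matrix.SpecialLinearGroup (Fin n) F :=
    Matrix.SpecialLinearGroup.map (fixF σ).subtype
  have hf : Function.Injective f := by
    intro a b hab
    apply Subtype.ext
    ext i j
    have := congrArg (fun g : Matrix.SpecialLinearGroup (Fin n) F => (g : Matrix (Fin n) (Fin n) F) i j) hab
    exact this
  have hr : f.range = fixedSubgroup (fld σ : MulAut (Matrix.SpecialLinearGroup (Fin n) F)) := by
    ext g
    constructor
    · rintro ⟨k, rfl⟩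
      rw [mem_fixed]
      apply Subtype.ext
      ext i j
      rw [coe_fld_apply]
      exact (k.1 i j).2
    · intro hg
      rw [mem_fixed] at hg
      have hg' : ∀ i j, σ (g.1 i j) = g.1 i j := by
        intro i j
        rw [← coe_fld_apply, hg]
      let M : Matrix (Fin n) (Fin n) (fixF σ) := Matrix.of fun i j => ⟨g.1 i j, hg' i j⟩
      have hM : M.map (fixF σ).subtype = g.1 := by ext i j; rfl
      have hdet : M.det = 1 := by
        apply (fixF σ).subtype_injective
        rw [RingHom.map_det, map_one]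
        change (M.map (fixF σ).subtype).det = 1
        rw [hM, g.2]
      exact ⟨⟨M, hdet⟩, Subtype.ext hM⟩
  exact (good_sl (F := fixF σ) n).congr ((MonoidHom.ofInjective hf).trans (MulEquiv.subgroupCongr hr))

/-- The centralizer of a semisimple element. -/
theorem good_fixed_cj (A : GL (Fin n) F) {m : ℕ} (hm : (m : F) ≠ 0) {a : F} (ha : a ≠ 0)
    (h : (A : Matrix (Fin n) (Fin n) F) ^ m = a • 1) :
    Good p ↥(fixedSubgroup (cj A : MulAut (Matrix.SpecialLinearGroup (Fin n) F))) := by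
  let E := Subring.centralizer ({(A : Matrix (Fin n) (Fin n) F)} : Set (Matrix (Fin n) (Fin n) F))
  have hE : IsSemisimpleRing ↥E := semisimple_centralizer_matrix hm ha h
  have hgood : Good p (↥E)ˣ := good_units ↥E
  have hmem : ∀ g : Matrix.SpecialLinearGroup (Fin n) F, g ∈ fixedSubgroup (cj A) ↔
      (A : Matrix (Fin n) (Fin n) F) * g.1 = g.1 * (A : Matrix (Fin n) (Fin n) F) := by
    intro g
    rw [mem_fixed]
    constructor
    · intro hg
      have h1 : (A : Matrix (Fin n) (Fin n) F) * g.1 * ((A⁻¹ : GL (Fin n) F) : Matrix (Fin n) (Fin n) F) = g.1 := by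
        rw [← coe_cj, hg]
      calc (A : Matrix (Fin n) (Fin n) F) * g.1
          = (A : Matrix (Fin n) (Fin n) F) * g.1 * (((A⁻¹ : GL (Fin n) F) : Matrix (Fin n) (Fin n) F) *
            (A : Matrix (Fin n) (Fin n) F)) := by rw [A.inv_mul, mul_one]
        _ = g.1 * (A : Matrix (Fin n) (Fin n) F) := by rw [← mul_assoc, h1]
    · intro hg
      apply Subtype.ext
      rw [coe_cj, hg, mul_assoc, A.mul_inv, mul_one]
  let f₀ : ↥(fixedSubgroup (cj A : MulAut (Matrix.SpecialLinearGroup (Fin n) F))) →* ↥E :=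
    { toFun := fun g => ⟨g.1.1, by
        rw [Subring.mem_centralizer_iff]
        intro x hx
        rw [Set.mem_singleton_iff] at hx
        rw [hx]
        exact (hmem g.1).mp g.2⟩
      map_one' := rfl
      map_mul' := fun _ _ => rfl }
  let f := f₀.toHomUnits
  have hf : ∀ g, ((f g : (↥E)ˣ) : ↥E) = f₀ g := fun _ => rfl
  refine good_of_injective f ?_ ?_ hgood
  · intro a b hab
    have h1 : f₀ a = f₀ b := by rw [← hf, ← hf, hab]
    apply Subtype.ext
    apply Subtype.ext
    exact congrArg (fun x : ↥E => (x : Matrix (Fin n) (Fin n) F)) h1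
  · have hr : ∀ u : (↥E)ˣ, u ∈ f.range ↔ ((u : ↥E) : Matrix (Fin n) (Fin n) F).det = 1 := by
      intro u
      constructor
      · rintro ⟨g, rfl⟩
        exact g.1.2
      · intro hu
        let g : Matrix.SpecialLinearGroup (Fin n) F := ⟨((u : ↥E) : Matrix (Fin n) (Fin n) F), hu⟩
        have hg : g ∈ fixedSubgroup (cj A : MulAut (Matrix.SpecialLinearGroup (Fin n) F)) :=
          (hmem g).mpr (Subring.mem_centralizer_iff.mp (u : ↥E).2 _ (Set.mem_singleton _))
        refine ⟨⟨g, hg⟩, ?_⟩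
        apply Units.ext
        rw [hf]
        rfl
    refine ⟨fun u hu v => ?_⟩
    rw [hr] at hu ⊢
    have h1 : ((v * u * v⁻¹ : (↥E)ˣ) : ↥E) = (v : ↥E) * (u : ↥E) * ((v⁻¹ : (↥E)ˣ) : ↥E) := rfl
    have h2 : ((v : ↥E) : Matrix (Fin n) (Fin n) F) * (((v⁻¹ : (↥E)ˣ) : ↥E) : Matrix (Fin n) (Fin n) F) = 1 := by
      have := congrArg (fun x : ↥E => (x : Matrix (Fin n) (Fin n) F)) v.mul_inv
      exact this
    rw [h1]
    change (((v : ↥E) : Matrix (Fin n) (Fin n) F) * ((u : ↥E) : Matrix (Fin n) (Fin n) F) *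
      (((v⁻¹ : (↥E)ˣ) : ↥E) : Matrix (Fin n) (Fin n) F)).det = 1
    rw [det_mul, det_mul, hu, mul_one, ← det_mul, h2, det_one]

/-- An automorphism of odd order of `PSL_n(F)` has no graph part. -/
theorem exists_type [Fintype F] (hn : 2 ≤ n) {x : MulAut (Matrix.ProjectiveSpecialLinearGroup (Fin n) F)} {m : ℕ}
    (hm : Odd m) (hx : x ^ m = 1) : ∃ (A : GL (Fin n) F) (σ : F ≃+* F), x = lift (cj A * fld σ) := by
  obtain ⟨r, hr⟩ := CharP.exists F
  have : Fact r.Prime := ⟨CharP.char_is_prime F r⟩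
  rcases Nat.eq_or_lt_of_le hn with rfl | hn
  · exact surj_two r x
  · obtain ⟨k, hk⟩ := hm
    have hx2 : x = x ^ (k + 1) * x ^ (k + 1) := by
      rw [← pow_add, show k + 1 + (k + 1) = m + 1 by omega, pow_succ, hx, one_mul]
    have hmul : ∀ (A B : GL (Fin n) F) (σ τ : F ≃+* F), (cj A * fld σ) * (cj B * fld τ) =
        (cj (A * mg σ B) * fld (σ * τ) : MulAut (Matrix.SpecialLinearGroup (Fin n) F)) := by
      intro A B σ τ
      rw [map_mul cj, map_mul fld, mul_assoc, ← mul_assoc (fld σ), fld_mul_cj]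
      simp only [mul_assoc]
    rcases surj_three r hn (x ^ (k + 1)) with ⟨A, σ, h⟩ | ⟨A, σ, h⟩
    · refine ⟨A * mg σ A, σ * σ, ?_⟩
      rw [hx2, h, ← map_mul, hmul]
    · refine ⟨A * mg σ (ctr A), σ * σ, ?_⟩
      rw [hx2, h, ← map_mul, ← hmul]
      congr 1
      calc cj A * fld σ * itr * (cj A * fld σ * itr)
          = cj A * fld σ * (itr * cj A) * fld σ * itr := by simp only [mul_assoc]
        _ = cj A * fld σ * cj (ctr A) * (itr * fld σ) * itr := by rw [itr_mul_cj]; simp only [mul_assoc]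
        _ = cj A * fld σ * cj (ctr A) * fld σ * (itr * itr) := by rw [itr_mul_fld]; simp only [mul_assoc]
        _ = cj A * fld σ * (cj (ctr A) * fld σ) := by rw [itr_mul_itr, mul_one]; simp only [mul_assoc]

/-- **The row `PSL_n(F)`, `p ≠ char F` odd.** -/
theorem bpS_psl (hp2 : p ≠ 2) (hpF : (p : F) ≠ 0) (hn : 2 ≤ n) :
    BpS p (Matrix.ProjectiveSpecialLinearGroup (Fin n) F) := by
  intro x hx
  have := Fintype.ofFinite F
  have hxp : x ^ p = 1 := by rw [← hx]; exact pow_orderOf_eq_one x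
  have hn0 : NeZero n := ⟨by omega⟩
  have hnt : Nontrivial (Fin n) := Fin.nontrivial_iff_two_le.2 hn
  obtain ⟨A, σ, rfl⟩ := exists_type hn (hp.out.odd_of_ne_two hp2) hxp
  rw [← map_pow, pow_type] at hxp
  have h1 : lift (cj (NA A σ p) * fld (σ ^ p)) = lift (fld (ι := Fin n) (1 : F ≃+* F)) := by
    rw [hxp, map_one fld, map_one]
  obtain ⟨⟨c, hc⟩, hσ⟩ := injective_aux h1
  have hc' : (NA A σ p : Matrix (Fin n) (Fin n) F) = c • 1 := by
    rw [← hc, Matrix.scalar_apply, Matrix.smul_one_eq_diagonal]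
  refine good_fixed_of_lift (X := Matrix.SpecialLinearGroup (Fin n) F) (π := pr) (α := cj A * fld σ) pr_surjective
    ?_ (fun g => rfl) ?_
  · intro g hg
    exact (pr_eq_one_iff g).1 hg
  by_cases h2 : σ = 1
  · subst h2
    rw [map_one fld, mul_one]
    rw [NA_one] at hc'
    have hc0 : c ≠ 0 := by
      rintro rfl
      rw [zero_smul] at hc'
      have h6 : (1 : Matrix (Fin n) (Fin n) F) = 0 := by
        rw [← (A ^ p).mul_inv, hc', zero_mul]
      have h7 := congrFun (congrFun h6 0) 0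
      rw [Matrix.one_apply_eq] at h7
      exact one_ne_zero h7
    exact good_fixed_cj A hpF hc0 (by rw [← Units.val_pow_eq_pow_val]; exact hc')
  · obtain ⟨B, hB⟩ := exists_std hp.out h2 hσ hc'
    exact good_fixed_conj hB (good_fixed_fld σ)

end Main

end Cfsg.Agent.BpLin
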