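import Cfsg.Agent.BpLin.Cent
import Cfsg.Agent.ClassicalGeometry.PSUAutCount
import Cfsg.Agent.BpField.PSU

/-!
# The row `PSU_n(q)`, characteristic different from `p`

`bpS_psu` : for `p` an odd prime, `p ≠ 0` in `F`, `|F| = q ^ 2`, the fixed points of every automorphism of order `p` of
`PSU_n(q)` are good (the automorphisms of field type: helper70, `BpField`).
-/

set_option autoImplicit false
set_option linter.unusedSectionVars false

namespace Cfsg.Agent.BpLin

open Subgroup Cfsg Cfsg.Agent.Lib Cfsg.Agent.BpTab Matrix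
open Cfsg.Agent.ClassicalGeometry.PSUAutCount (toAut gm gm_mul gm_one gm_mul_inv gm_inv_mul semiConj toAut_pr herm_gm)
open Cfsg.Agent.LieClassical.HermSiegel (mat)
open Cfsg.Agent.ClassicalGeometry.UnitAutBasic (pr pr_surjective)

section Ring

variable {F : Type*} [Field F] {n : ℕ}

/-- The involution of the centralizer of a unitary matrix. -/
def centInv {σ : F →+* F} (hσ2 : ∀ a, σ (σ a) = a) {A : Matrix (Fin n) (Fin n) F} (hA : A * cst σ A = 1) :
    RInv ↥(Subring.centralizer ({A} : Set (Matrix (Fin n) (Fin n) F))) where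
  toFun M := ⟨cst σ (M : Matrix (Fin n) (Fin n) F), by
    rw [Subring.mem_centralizer_iff]
    intro g hg
    rw [Set.mem_singleton_iff] at hg
    rw [hg]
    have h1 : A * (M : Matrix (Fin n) (Fin n) F) = (M : Matrix (Fin n) (Fin n) F) * A :=
      Subring.mem_centralizer_iff.mp M.2 A (Set.mem_singleton A)
    have h2 : cst σ (M : Matrix (Fin n) (Fin n) F) * cst σ A = cst σ A * cst σ (M : Matrix (Fin n) (Fin n) F) := by
      rw [← cst_mul, ← cst_mul, h1]
    have hA' : cst σ A * A = 1 := mul_eq_one_comm.mp hA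
    calc A * cst σ (M : Matrix (Fin n) (Fin n) F)
        = A * (cst σ (M : Matrix (Fin n) (Fin n) F) * cst σ A) * A := by
          rw [mul_assoc A, mul_assoc (cst σ (M : Matrix (Fin n) (Fin n) F)), hA', mul_one]
      _ = (A * cst σ A) * cst σ (M : Matrix (Fin n) (Fin n) F) * A := by rw [h2]; simp only [mul_assoc]
      _ = cst σ (M : Matrix (Fin n) (Fin n) F) * A := by rw [hA, one_mul]⟩
  map_add' a b := Subtype.ext (cst_add σ _ _)
  map_mul' a b := Subtype.ext (cst_mul σ _ _)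
  invol' a := Subtype.ext (cst_cst hσ2 _)

variable {p : ℕ} [hp : Fact p.Prime]

theorem good_centInv [Finite F] {σ : F →+* F} (hσ : σ ≠ RingHom.id F) (hσ2 : ∀ a, σ (σ a) = a)
    {A : Matrix (Fin n) (Fin n) F} (hA : A * cst σ A = 1) {m : ℕ} (hm : (m : F) ≠ 0) {a : F} (ha : a ≠ 0)
    (h : A ^ m = a • 1) : Good p ↥(centInv hσ2 hA).U := by
  have hE : IsSemisimpleRing ↥(Subring.centralizer ({A} : Set (Matrix (Fin n) (Fin n) F))) :=
    semisimple_centralizer_matrix hm ha h
  apply good_unitary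
  intro c _ _ _ hc0
  obtain ⟨b, hb⟩ : ∃ b, σ b ≠ b := by
    by_contra hcon
    push Not at hcon
    exact hσ (RingHom.ext hcon)
  have hcomm : ∀ (r : F) (M : Matrix (Fin n) (Fin n) F), Matrix.scalar (Fin n) r * M = M * Matrix.scalar (Fin n) r :=
    fun r M => (Matrix.scalar_commute r (fun r' => Commute.all r r') M).eq
  let z : ↥(Subring.centralizer ({A} : Set (Matrix (Fin n) (Fin n) F))) := ⟨Matrix.scalar (Fin n) b, by
    rw [Subring.mem_centralizer_iff]
    intro g _
    exact (hcomm b g).symm⟩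
  refine ⟨z, ?_, ?_⟩
  · rw [Subring.mem_center_iff]
    intro g
    exact Subtype.ext (hcomm b _).symm
  · intro hz
    apply hc0
    have h1 : cst σ (Matrix.scalar (Fin n) b) * (c : Matrix (Fin n) (Fin n) F) =
        Matrix.scalar (Fin n) b * (c : Matrix (Fin n) (Fin n) F) := congrArg Subtype.val hz
    rw [cst_scalar, Matrix.scalar_apply, Matrix.scalar_apply, ← Matrix.smul_one_eq_diagonal,
      ← Matrix.smul_one_eq_diagonal, Matrix.smul_mul, Matrix.smul_mul, one_mul] at h1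
    have h2 : (σ b - b) • (c : Matrix (Fin n) (Fin n) F) = 0 := by rw [sub_smul, h1, sub_self]
    rcases smul_eq_zero.mp h2 with h3 | h3
    · exact absurd (sub_eq_zero.mp h3) hb
    · exact Subtype.ext h3

end Ring

section Main

variable {F : Type*} [Field F] [Fintype F] {n q : ℕ} {p : ℕ} [hp : Fact p.Prime]

theorem mem_SU_iff_cst (hF : Fintype.card F = q ^ 2) {σ : F →+* F} (hσ : ∀ x, σ x = x ^ q)
    (g : Matrix.SpecialLinearGroup (Fin n) F) : g ∈ SU n F q ↔ g.1 * cst σ g.1 = 1 := by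
  have h1 : g ∈ SU n F q ↔ Matrix.SpecialLinearGroup.toGL g ∈ GU n F q := Iff.rfl
  rw [h1, mem_GU_iff_cst hF hσ]
  rfl

/-- **The linear case.** -/
theorem good_lin (hF : Fintype.card F = q ^ 2) (hpF : (p : F) ≠ 0) (A : GU n F q) (c : F) (hc : c * c ^ q = 1)
    (hA : gm A ^ p = c • 1) : Good p ↥(fixedSubgroup (toAut A 1)) := by
  obtain ⟨σ₀, hσ⟩ := ClassicalGeometry.GUBasic.exists_powHom hF
  have hσ2 : ∀ a, σ₀ (σ₀ a) = a := by
    intro a
    rw [hσ, hσ, ← pow_mul, ← pow_two, ← hF, FiniteField.pow_card]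
  have hσne : σ₀ ≠ RingHom.id F := by
    intro h
    obtain ⟨s, hs⟩ := Cfsg.Agent.LieClassical.HermBasic.exists_not_fixed hF
    apply hs
    rw [← hσ, h]; rfl
  have hc0 : c ≠ 0 := left_ne_zero_of_mul_eq_one hc
  have hAu : gm A * cst σ₀ (gm A) = 1 := (mem_GU_iff_cst hF hσ _).mp A.2
  have hgood : Good p ↥(centInv hσ2 hAu).U := good_centInv hσne hσ2 hAu hpF hc0 hA
  refine good_fixed_of_lift (X := ↥(SU n F q)) (π := pr n F q) (α := semiConj A 1) pr_surjective ?_ (fun g => rfl) ?_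
  · intro g hg
    exact (QuotientGroup.eq_one_iff g).mp hg
  -- the fixed points in `SU`
  have hmatA : gm A * gm A⁻¹ = 1 := gm_mul_inv A
  have hmatA' : gm A⁻¹ * gm A = 1 := gm_inv_mul A
  have hsemi : ∀ g : SU n F q, mat (semiConj A 1 g) = gm A * mat g * gm A⁻¹ := fun g => rfl
  have hext : ∀ g g' : SU n F q, mat g = mat g' → g = g' := fun g g' h => Subtype.ext (Subtype.ext h)
  have hmem : ∀ g : SU n F q, g ∈ fixedSubgroup (semiConj A 1) ↔ gm A * mat g = mat g * gm A := by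
    intro g
    change semiConj A 1 g = g ↔ _
    constructor
    · intro hg
      have h1 : gm A * mat g * gm A⁻¹ = mat g := by rw [← hsemi, hg]
      calc gm A * mat g = gm A * mat g * (gm A⁻¹ * gm A) := by rw [hmatA', mul_one]
        _ = mat g * gm A := by rw [← mul_assoc, h1]
    · intro hg
      apply hext
      rw [hsemi, hg, mul_assoc, hmatA, mul_one]
  have hu : ∀ g : SU n F q, mat g * cst σ₀ (mat g) = 1 := fun g => (mem_SU_iff_cst hF hσ _).mp g.2
  let E := Subring.centralizer ({gm A} : Set (Matrix (Fin n) (Fin n) F))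
  let f₀ : ↥(fixedSubgroup (semiConj A 1)) →* ↥E :=
    { toFun := fun g => ⟨mat g.1, by
        rw [Subring.mem_centralizer_iff]
        intro x hx
        rw [Set.mem_singleton_iff] at hx
        rw [hx]
        exact (hmem g.1).mp g.2⟩
      map_one' := rfl
      map_mul' := fun _ _ => rfl }
  let f : ↥(fixedSubgroup (semiConj A 1)) →* ↥(centInv hσ2 hAu).U :=
    f₀.toHomUnits.codRestrict _ (fun g => Subtype.ext (hu g.1))
  have hf : ∀ g, (((f g : ↥(centInv hσ2 hAu).U) : (↥E)ˣ) : ↥E) = f₀ g := fun _ => rfl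
  refine good_of_injective f ?_ ?_ hgood
  · intro a b hab
    have h1 : f₀ a = f₀ b := by rw [← hf, ← hf, hab]
    apply Subtype.ext
    apply hext
    exact congrArg (fun x : ↥E => (x : Matrix (Fin n) (Fin n) F)) h1
  · have hr : ∀ u : ↥(centInv hσ2 hAu).U, u ∈ f.range ↔
        (((u : (↥E)ˣ) : ↥E) : Matrix (Fin n) (Fin n) F).det = 1 := by
      intro u
      constructor
      · rintro ⟨g, rfl⟩
        exact g.1.1.2
      · intro hdet
        let g₀ : Matrix.SpecialLinearGroup (Fin n) F := ⟨(((u : (↥E)ˣ) : ↥E) : Matrix (Fin n) (Fin n) F), hdet⟩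
        have hg₀ : g₀ ∈ SU n F q := by
          rw [mem_SU_iff_cst hF hσ]
          have h1 : ((u : (↥E)ˣ) : ↥E) * centInv hσ2 hAu ((u : (↥E)ˣ) : ↥E) = 1 := u.2
          exact congrArg (fun x : ↥E => (x : Matrix (Fin n) (Fin n) F)) h1
        let g : SU n F q := ⟨g₀, hg₀⟩
        have hg : g ∈ fixedSubgroup (semiConj A 1) :=
          (hmem g).mpr (Subring.mem_centralizer_iff.mp ((u : (↥E)ˣ) : ↥E).2 _ (Set.mem_singleton _))
        refine ⟨⟨g, hg⟩, ?_⟩
        apply Subtype.ext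
        apply Units.ext
        rw [hf]
        rfl
    refine ⟨fun u hu v => ?_⟩
    rw [hr] at hu ⊢
    have h2 : ((((v : (↥E)ˣ) : ↥E)) : Matrix (Fin n) (Fin n) F) *
        ((((v⁻¹ : ↥(centInv hσ2 hAu).U) : (↥E)ˣ) : ↥E) : Matrix (Fin n) (Fin n) F) = 1 := by
      have := congrArg (fun x : ↥E => (x : Matrix (Fin n) (Fin n) F)) (v : (↥E)ˣ).mul_inv
      exact this
    change (((((v : (↥E)ˣ) : ↥E)) : Matrix (Fin n) (Fin n) F) * ((((u : (↥E)ˣ) : ↥E)) : Matrix (Fin n) (Fin n) F) *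
      ((((v⁻¹ : ↥(centInv hσ2 hAu).U) : (↥E)ˣ) : ↥E) : Matrix (Fin n) (Fin n) F)).det = 1
    rw [det_mul, det_mul, hu, mul_one, ← det_mul, h2, det_one]

/-- **The row `PSU_n(q)`, `p ≠ char F` odd.** -/
theorem bpS_psu (hF : Fintype.card F = q ^ 2) (hn : 3 ≤ n) (h32 : ¬ (n = 3 ∧ q = 2)) (hp2 : p ≠ 2)
    (hpF : (p : F) ≠ 0) : BpS p (PSU n F q) :=
  BpField.PSU.bpS_of_lin hF hn h32 hp.out hp2 fun A c hc hA => good_lin hF hpF A c hc hA

end Main

end Cfsg.Agent.BpLin
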